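import Mathlib
import Cfsg.Prelude.Def_OddOrderLocal
import Cfsg.Prelude.Def_HallClasses
import Cfsg.Agent.Lib.Helper83.HT.Nt1
import Cfsg.Agent.Lib.Helper78.HT.SetStab
import Cfsg.Agent.Lib.Helper78.HT.Constr
import Cfsg.Agent.Lib.Helper72.HT.Restrict
import Cfsg.Agent.Lib.Helper62.HT.PointStab
import Cfsg.Agent.Lib.Helper82.HT.Cycles
import Cfsg.Agent.Lib.Helper90.HT.Jordan

set_option autoImplicit false

/-! Interface of the Hall–Thompson project (S2536): the package lemmas proved by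
helper83 (arithmetic), helper78 (set stabilizers, constructions), helper72 (restriction),
helper62 (point stabilizers), helper82 (cycles), helper90 (Jordan), under one namespace. -/

namespace Cfsg.Agent.Lib.Helper73.HT

variable {Ω : Type*} [Fintype Ω] [DecidableEq Ω] {π : Set ℕ} {H : Subgroup (Equiv.Perm Ω)}

theorem nt1 (d e : ℕ) (he2 : 2 ≤ e) (hed : e ≤ d)
    (h : ∀ p : ℕ, p.Prime → p ≤ d → ¬ p ∣ Nat.choose (d + e) e) : d = 4 ∧ e = 3 :=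
  Cfsg.Agent.Lib.Helper83.HT.nt1 d e he2 hed h

theorem hall_choose (hH : Cfsg.IsPiHall π H) (s : Finset Ω)
    (hs : ∀ h ∈ H, ∀ x, h x ∈ s ↔ x ∈ s) :
    ∀ p : ℕ, p.Prime → p ∈ π → ¬ p ∣ (Fintype.card Ω).choose s.card :=
  Cfsg.Agent.Lib.Helper78.HT.hall_choose hH s hs

theorem hall_restrict (hH : Cfsg.IsPiHall π H) (s : Finset Ω)
    (hs : ∀ h ∈ H, ∀ x, h x ∈ s ↔ x ∈ s) :
    ∃ H' : Subgroup (Equiv.Perm {x // x ∈ s}), Cfsg.IsPiHall π H' ∧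
      ∀ h' : Equiv.Perm {x // x ∈ s}, h' ∈ H' ↔
        ∃ h ∈ H, ∀ x : {x // x ∈ s}, ((h' x : {x // x ∈ s}) : Ω) = h x :=
  Cfsg.Agent.Lib.Helper72.HT.hall_restrict hH s hs

theorem hall_point_stab (hH : Cfsg.IsPiHall π H) (htr : ∀ x y : Ω, ∃ h ∈ H, h x = y) (ω : Ω) :
    ∃ H' : Subgroup (Equiv.Perm {x // x ≠ ω}), Cfsg.IsPiHall π H' ∧
      ∀ h' : Equiv.Perm {x // x ≠ ω}, h' ∈ H' ↔
        ∃ h ∈ H, h ω = ω ∧ ∀ x : {x // x ≠ ω}, ((h' x : {x // x ≠ ω}) : Ω) = h x :=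
  Cfsg.Agent.Lib.Helper62.HT.hall_point_stab hH htr ω

theorem exists_cycle_mem (hH : Cfsg.IsPiHall π H) (r : ℕ) (hr : r.Prime) (hrπ : r ∈ π)
    (hrn : r ≤ Fintype.card Ω) : ∃ b ∈ H, b.IsCycle ∧ b.support.card = r :=
  Cfsg.Agent.Lib.Helper82.HT.exists_cycle_mem hH r hr hrπ hrn

theorem exists_invol_swaps (hH : Cfsg.IsPiHall π H) (h2 : 2 ∈ π) :
    ∃ f : Ω → Ω, (∀ y, Equiv.swap y (f y) ∈ H) ∧ ∀ y z, f y = y → f z = z → y = z :=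
  Cfsg.Agent.Lib.Helper82.HT.exists_invol_swaps hH h2

theorem even_card_of_prime_degree (hp : (Fintype.card Ω).Prime)
    (htr : ∀ x y : Ω, ∃ h ∈ H, h x = y) (b : Equiv.Perm Ω) (hb : b ∈ H) (hc : b.IsCycle)
    (hlt : b.support.card < Fintype.card Ω) : 2 ∣ Nat.card H :=
  Cfsg.Agent.Lib.Helper90.HT.even_card_of_prime_degree hp htr b hb hc hlt

theorem hall_exists_prime (n : ℕ) (hn : n.Prime) (π : Set ℕ)
    (hπ : ∀ r : ℕ, r.Prime → r ≤ n → (r ∈ π ↔ r < n)) :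
    Cfsg.IsEPiGroup π (Equiv.Perm (Fin n)) :=
  Cfsg.Agent.Lib.Helper78.HT.hall_exists_prime n hn π hπ

theorem hall_exists_seven (π : Set ℕ)
    (hπ : ∀ r : ℕ, r.Prime → r ≤ 7 → (r ∈ π ↔ (r = 2 ∨ r = 3))) :
    Cfsg.IsEPiGroup π (Equiv.Perm (Fin 7)) :=
  Cfsg.Agent.Lib.Helper78.HT.hall_exists_seven π hπ

theorem hall_exists_eight (π : Set ℕ)
    (hπ : ∀ r : ℕ, r.Prime → r ≤ 8 → (r ∈ π ↔ (r = 2 ∨ r = 3))) :
    Cfsg.IsEPiGroup π (Equiv.Perm (Fin 8)) :=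
  Cfsg.Agent.Lib.Helper78.HT.hall_exists_eight π hπ

end Cfsg.Agent.Lib.Helper73.HT
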