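import Mathlib
import Cfsg.Agent.Lib.Helper73.HT.Pkg

set_option autoImplicit false

namespace Cfsg.Agent.Lib.Helper73.HT

open Equiv

variable {Ω : Type*} [Fintype Ω] [DecidableEq Ω] {π : Set ℕ} {H : Subgroup (Perm Ω)}

/-- The transposition relation of `H`. -/
def Rel (H : Subgroup (Perm Ω)) (x y : Ω) : Prop := x = y ∨ swap x y ∈ H

theorem rel_symm {x y : Ω} (h : Rel H x y) : Rel H y x := by
  rcases h with h | h
  · exact Or.inl h.symm
  · exact Or.inr (by rwa [swap_comm])

theorem rel_trans {x y z : Ω} (h1 : Rel H x y) (h2 : Rel H y z) : Rel H x z := by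
  rcases h1 with rfl | h1
  · exact h2
  rcases h2 with rfl | h2
  · exact Or.inr h1
  by_cases hxz : x = z
  · exact Or.inl hxz
  by_cases hxy : x = y
  · subst hxy; exact Or.inr h2
  right
  have h3 : swap y z * swap x y * swap y z = swap z x := swap_mul_swap_mul_swap hxy hxz
  rw [swap_comm, ← h3]
  exact H.mul_mem (H.mul_mem h2 h1) h2

theorem rel_smul {h : Perm Ω} (hh : h ∈ H) {x y : Ω} (hr : Rel H x y) : Rel H (h x) (h y) := by
  rcases hr with rfl | hr
  · exact Or.inl rfl
  · right
    rw [swap_apply_apply]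
    exact H.mul_mem (H.mul_mem hh hr) (H.inv_mem hh)

open Classical in
/-- The class of `x` for the transposition relation of `H`. -/
noncomputable def cls (H : Subgroup (Perm Ω)) (x : Ω) : Finset Ω :=
  Finset.univ.filter (fun y => Rel H x y)

theorem mem_cls {x y : Ω} : y ∈ cls H x ↔ Rel H x y := by simp [cls]

theorem self_mem_cls (x : Ω) : x ∈ cls H x := mem_cls.2 (Or.inl rfl)

theorem cls_eq_of_mem {x y : Ω} (h : y ∈ cls H x) : cls H y = cls H x := by
  ext z
  simp only [mem_cls]
  exact ⟨fun hz => rel_trans (mem_cls.1 h) hz, fun hz => rel_trans (rel_symm (mem_cls.1 h)) hz⟩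

theorem cls_smul {h : Perm Ω} (hh : h ∈ H) (x y : Ω) : h y ∈ cls H (h x) ↔ y ∈ cls H x := by
  simp only [mem_cls]
  constructor
  · intro hr
    have := rel_smul (H.inv_mem hh) hr
    simpa using this
  · exact rel_smul hh

theorem card_cls_smul {h : Perm Ω} (hh : h ∈ H) (x : Ω) :
    (cls H (h x)).card = (cls H x).card := by
  have : cls H (h x) = (cls H x).map h.toEmbedding := by
    ext z
    simp only [Finset.mem_map, Equiv.coe_toEmbedding]
    constructor
    · intro hz
      refine ⟨h⁻¹ z, ?_, by simp⟩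
      rw [← cls_smul hh]
      simpa using hz
    · rintro ⟨y, hy, rfl⟩
      exact (cls_smul hh x y).2 hy
  rw [this, Finset.card_map]

/-- Every permutation supported in a class lies in `H`. -/
theorem mem_of_support_subset_cls (x : Ω) (σ : Perm Ω) (hσ : ∀ y, σ y ≠ y → y ∈ cls H x) :
    σ ∈ H := by
  classical
  have key : ∀ τ : Perm {y // y ∈ cls H x}, Perm.ofSubtype τ ∈ H := by
    intro τ
    induction τ using Perm.swap_induction_on with
    | one => simp
    | swap_mul f a b hab ih =>
      rw [map_mul]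
      refine H.mul_mem ?_ ih
      rw [Perm.ofSubtype_swap_eq]
      have ha : Rel H x a := mem_cls.1 a.2
      have hb : Rel H x b := mem_cls.1 b.2
      rcases rel_trans (rel_symm ha) hb with h | h
      · exact absurd (Subtype.ext h) hab
      · exact h
  have h₁ : ∀ y, σ y ∈ cls H x ↔ y ∈ cls H x := by
    intro y
    by_cases hy : σ y = y
    · rw [hy]
    · have h1 : y ∈ cls H x := hσ y hy
      have h2 : σ y ∈ cls H x := hσ (σ y) (fun h => hy (σ.injective h))
      exact ⟨fun _ => h1, fun _ => h2⟩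
  have := key (σ.subtypePerm h₁)
  rwa [Perm.ofSubtype_subtypePerm h₁ hσ] at this

theorem factorial_card_cls_dvd (x : Ω) : (cls H x).card.factorial ∣ Nat.card H := by
  classical
  let f : Perm {y // y ∈ cls H x} →* H :=
    (Perm.ofSubtype : Perm {y // y ∈ cls H x} →* Perm Ω).codRestrict H (fun τ => by
      apply mem_of_support_subset_cls x
      intro y hy
      by_contra hyc
      exact hy (Perm.ofSubtype_apply_of_not_mem τ hyc))
  have hf : Function.Injective f := by
    intro a b hab
    have : Perm.ofSubtype a = Perm.ofSubtype b := congrArg Subtype.val hab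
    exact Perm.ofSubtype_injective this
  have := Subgroup.card_dvd_of_injective f hf
  rwa [Nat.card_perm, Nat.card_eq_fintype_card, Fintype.card_coe] at this

/-- the largest class size -/
noncomputable def maxCls (H : Subgroup (Perm Ω)) : ℕ :=
  Finset.univ.sup (fun x => (cls H x).card)

theorem card_cls_le (x : Ω) : (cls H x).card ≤ maxCls H :=
  Finset.le_sup (f := fun x => (cls H x).card) (Finset.mem_univ x)

theorem exists_card_cls_eq [Nonempty Ω] : ∃ x : Ω, (cls H x).card = maxCls H := by
  obtain ⟨x, _, hx⟩ := Finset.exists_mem_eq_sup Finset.univ Finset.univ_nonempty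
    (fun x => (cls H x).card)
  exact ⟨x, hx.symm⟩

open Classical in
/-- The orbit of `x` under `H` as a finset. -/
noncomputable def orb (H : Subgroup (Perm Ω)) (x : Ω) : Finset Ω :=
  Finset.univ.filter (fun y => ∃ h ∈ H, h x = y)

theorem mem_orb {x y : Ω} : y ∈ orb H x ↔ ∃ h ∈ H, h x = y := by simp [orb]

theorem self_mem_orb (x : Ω) : x ∈ orb H x := mem_orb.2 ⟨1, H.one_mem, rfl⟩

theorem orb_inv (x : Ω) : ∀ h ∈ H, ∀ y, h y ∈ orb H x ↔ y ∈ orb H x := by
  intro h hh y
  simp only [mem_orb]
  constructor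
  · rintro ⟨g, hg, hgx⟩
    exact ⟨h⁻¹ * g, H.mul_mem (H.inv_mem hh) hg, by simp [hgx]⟩
  · rintro ⟨g, hg, hgx⟩
    exact ⟨h * g, H.mul_mem hh hg, by simp [hgx]⟩

theorem orb_trans (x : Ω) : ∀ y ∈ orb H x, ∀ z ∈ orb H x, ∃ h ∈ H, h y = z := by
  intro y hy z hz
  obtain ⟨g, hg, rfl⟩ := mem_orb.1 hy
  obtain ⟨k, hk, rfl⟩ := mem_orb.1 hz
  exact ⟨k * g⁻¹, H.mul_mem hk (H.inv_mem hg), by simp⟩

theorem cls_subset_orb {x y : Ω} (hy : y ∈ orb H x) : cls H y ⊆ orb H x := by
  intro z hz
  rcases mem_cls.1 hz with rfl | h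
  · exact hy
  · have := (orb_inv x _ h y).2 hy
    simpa using this

theorem card_cls_of_mem_orb {x y : Ω} (hy : y ∈ orb H x) : (cls H y).card = (cls H x).card := by
  obtain ⟨g, hg, rfl⟩ := mem_orb.1 hy
  exact card_cls_smul hg x

theorem card_cls_dvd_card_orb (x : Ω) : (cls H x).card ∣ (orb H x).card := by
  classical
  rw [Finset.card_eq_sum_card_image (cls H) (orb H x)]
  apply Finset.dvd_sum
  intro c hc
  obtain ⟨y, hy, rfl⟩ := Finset.mem_image.1 hc
  have : (orb H x).filter (fun a => cls H a = cls H y) = cls H y := by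
    ext z
    simp only [Finset.mem_filter]
    constructor
    · rintro ⟨_, hz⟩
      rw [← hz]
      exact self_mem_cls z
    · intro hz
      exact ⟨cls_subset_orb hy hz, cls_eq_of_mem hz⟩
  rw [this, card_cls_of_mem_orb hy]

end Cfsg.Agent.Lib.Helper73.HT
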