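import Mathlib
import Cfsg.Agent.Lib.Helper73.HT.Cls

set_option autoImplicit false

namespace Cfsg.Agent.Lib.Helper73.HT

open Equiv

variable {Ω : Type*} [Fintype Ω] [DecidableEq Ω] {π : Set ℕ} {H : Subgroup (Perm Ω)}

/-- If `h ∈ H` maps `y` into its own class, then it preserves that class. -/
theorem cls_preserved {h : Perm Ω} (hh : h ∈ H) {y : Ω} (hy : h y ∈ cls H y) :
    ∀ w ∈ cls H y, h w ∈ cls H y := by
  intro w hw
  have := (cls_smul hh y w).2 hw
  rwa [cls_eq_of_mem hy] at this

theorem cls_preserved_pow {h : Perm Ω} (hh : h ∈ H) {y : Ω} (hy : h y ∈ cls H y) (k : ℕ) :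
    (h ^ k) y ∈ cls H y := by
  induction k with
  | zero => simpa using self_mem_cls y
  | succ k ih =>
    rw [pow_succ', Perm.mul_apply]
    exact cls_preserved hh hy _ ih

/-- A cycle of odd prime length in `H` is supported in a single class. -/
theorem cycle_support_subset_cls (hH : Cfsg.IsPiHall π H) (h2 : 2 ∈ π) (b : Perm Ω)
    (hb : b ∈ H) (hc : b.IsCycle) (r : ℕ) (hr : r.Prime) (hbr : b.support.card = r)
    (hr3 : 3 ≤ r) : ∃ y, b.support ⊆ cls H y := by
  obtain ⟨f, hf1, hf2⟩ := exists_invol_swaps hH h2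
  -- a point of the support not fixed by f
  have hex : ∃ y ∈ b.support, f y ≠ y := by
    have h1 : 1 < b.support.card := by omega
    obtain ⟨y1, hy1, y2, hy2, hne⟩ := Finset.one_lt_card.1 h1
    by_cases h : f y1 = y1
    · refine ⟨y2, hy2, fun h' => hne (hf2 _ _ h h')⟩
    · exact ⟨y1, hy1, h⟩
  obtain ⟨y, hy, hfy⟩ := hex
  have hby : b y ≠ y := Perm.mem_support.1 hy
  have hz : f y ∈ cls H y := mem_cls.2 (Or.inr (hf1 y))
  have hord : orderOf b = r := by rw [hc.orderOf, hbr]
  -- b y lies in the class of y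
  have hkey : b y ∈ cls H y := by
    by_cases hbz : b (f y) = f y
    · have h1 : swap (b y) (b (f y)) ∈ H := by
        rw [swap_apply_apply]
        exact H.mul_mem (H.mul_mem hb (hf1 y)) (H.inv_mem hb)
      rw [hbz] at h1
      have h2 : Rel H (b y) (f y) := Or.inr h1
      exact mem_cls.2 (rel_symm (rel_trans h2 (rel_symm (mem_cls.1 hz))))
    · obtain ⟨j, hj⟩ := hc.exists_pow_eq hby hbz
      have hjr : ¬ r ∣ j := by
        intro hdvd
        have : b ^ j = 1 := by
          rw [← hord] at hdvd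
          exact orderOf_dvd_iff_pow_eq_one.1 hdvd
        rw [this] at hj
        exact hfy hj.symm
      have hcop : Nat.Coprime j r := (Nat.Coprime.symm ((Nat.Prime.coprime_iff_not_dvd hr).2 hjr))
      obtain ⟨k, -, hk⟩ := Nat.exists_mul_mod_eq_one_of_coprime hcop hr.one_lt
      have hbj : b ^ j ∈ H := H.pow_mem hb j
      have hbjy : (b ^ j) y ∈ cls H y := by rw [hj]; exact hz
      have h3 := cls_preserved_pow hbj hbjy k
      have h4 : (b ^ j) ^ k = b := by
        rw [← pow_mul, ← pow_mod_orderOf, hord, hk, pow_one]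
      rwa [h4] at h3
  refine ⟨y, fun w hw => ?_⟩
  obtain ⟨i, hi⟩ := hc.exists_pow_eq hby (Perm.mem_support.1 hw)
  rw [← hi]
  exact cls_preserved_pow hb hkey i

/-- With `2 ∈ π`: a prime `t ≤ card Ω` lies in `π` iff `t ≤ maxCls H`. -/
theorem mem_pi_iff_le_max (hH : Cfsg.IsPiHall π H) (h2 : 2 ∈ π) (hn3 : 3 ≤ Fintype.card Ω)
    (t : ℕ) (ht : t.Prime) (htn : t ≤ Fintype.card Ω) : t ∈ π ↔ t ≤ maxCls H := by
  constructor
  · intro htπ
    by_cases ht2 : t = 2
    · subst ht2
      obtain ⟨f, hf1, hf2⟩ := exists_invol_swaps hH h2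
      have h1 : 1 < (Finset.univ : Finset Ω).card := by rw [Finset.card_univ]; omega
      obtain ⟨y1, -, y2, -, hne⟩ := Finset.one_lt_card.1 h1
      have hex : ∃ y : Ω, f y ≠ y := by
        by_cases h : f y1 = y1
        · exact ⟨y2, fun h' => hne (hf2 _ _ h h')⟩
        · exact ⟨y1, h⟩
      obtain ⟨y, hy⟩ := hex
      have hz : f y ∈ cls H y := mem_cls.2 (Or.inr (hf1 y))
      have : 1 < (cls H y).card :=
        Finset.one_lt_card.2 ⟨f y, hz, y, self_mem_cls y, hy⟩
      exact le_trans this (card_cls_le y)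
    · have ht3 : 3 ≤ t := by
        have := ht.two_le
        omega
      obtain ⟨b, hb, hc, hbt⟩ := exists_cycle_mem hH t ht htπ htn
      obtain ⟨y, hy⟩ := cycle_support_subset_cls hH h2 b hb hc t ht hbt ht3
      calc t = b.support.card := hbt.symm
        _ ≤ (cls H y).card := Finset.card_le_card hy
        _ ≤ maxCls H := card_cls_le y
  · intro htM
    haveI : Nonempty Ω := by
      rw [← Fintype.card_pos_iff]; omega
    obtain ⟨x, hx⟩ := exists_card_cls_eq (H := H)
    have h1 : t ∣ (cls H x).card.factorial := Nat.dvd_factorial ht.pos (hx ▸ htM)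
    exact hH.1 t ht (dvd_trans h1 (factorial_card_cls_dvd x))

end Cfsg.Agent.Lib.Helper73.HT
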