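import Mathlib
import Cfsg.Agent.Lib.Helper73.HT.Cyc

set_option autoImplicit false

namespace Cfsg.Agent.Lib.Helper73.HT

open Equiv

universe u

/-- The classification alternatives for the primes of `π` up to `n`. -/
def Good (n : ℕ) (π : Set ℕ) : Prop :=
  (∀ r s : ℕ, r.Prime → s.Prime → r ∈ π → s ∈ π → r ≤ n → s ≤ n → r = s) ∨
  (∀ r : ℕ, r.Prime → r ≤ n → r ∈ π) ∨
  (n.Prime ∧ ∀ r : ℕ, r.Prime → r ≤ n → (r ∈ π ↔ r < n)) ∨
  ((n = 7 ∨ n = 8) ∧ ∀ r : ℕ, r.Prime → r ≤ n → (r ∈ π ↔ (r = 2 ∨ r = 3)))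

theorem not_prime_dvd_choose_add {p M : ℕ} (hp : p.Prime) (hM : M < p) :
    ¬ p ∣ Nat.choose (p + M) M := by
  haveI := Fact.mk hp
  intro hdvd
  have h1 : (p + M).choose M ≡ ((p + M) % p).choose (M % p) * ((p + M) / p).choose (M / p) [MOD p] :=
    Choose.choose_modEq_choose_mod_mul_choose_div_nat
  have h2 : (p + M) % p = M := by
    rw [Nat.add_mod_left, Nat.mod_eq_of_lt hM]
  have h3 : M % p = M := Nat.mod_eq_of_lt hM
  have h4 : M / p = 0 := Nat.div_eq_of_lt hM
  rw [h2, h3, h4, Nat.choose_self, Nat.choose_zero_right, mul_one] at h1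
  have h5 : (p + M).choose M % p = 0 := Nat.mod_eq_zero_of_dvd hdvd
  have h6 : (1 : ℕ) % p = 1 := Nat.mod_eq_of_lt hp.one_lt
  have : (p + M).choose M % p = 1 % p := h1
  omega

theorem prime_le_four {t : ℕ} (ht : t.Prime) : t ≤ 4 ↔ (t = 2 ∨ t = 3) := by
  constructor
  · intro h
    have h2 := ht.two_le
    interval_cases t
    · exact Or.inl rfl
    · exact Or.inr rfl
    · exact absurd ht (by decide)
  · rintro (rfl | rfl) <;> omega

theorem prime_le_three {t : ℕ} (ht : t.Prime) : t ≤ 3 ↔ (t = 2 ∨ t = 3) := by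
  constructor
  · intro h
    have h2 := ht.two_le
    omega
  · rintro (rfl | rfl) <;> omega

/-- Induction hypothesis shape. -/
def IH (n : ℕ) : Prop :=
  ∀ m < n, ∀ (Ω' : Type u) [Fintype Ω'] [DecidableEq Ω'] (π : Set ℕ)
    (H' : Subgroup (Perm Ω')), Fintype.card Ω' = m → Cfsg.IsPiHall π H' → Good m π

theorem two_mem_of_hall {n : ℕ} (ih : IH.{u} n)
    (Ω : Type u) [Fintype Ω] [DecidableEq Ω] (π : Set ℕ) (H : Subgroup (Perm Ω))
    (hcard : Fintype.card Ω = n) (hH : Cfsg.IsPiHall π H)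
    (r s : ℕ) (hr : r.Prime) (hs : s.Prime) (hrs : r < s) (hrπ : r ∈ π) (hsπ : s ∈ π)
    (hsn : s ≤ n) : 2 ∈ π := by
  by_contra h2
  have hr2 := hr.two_le
  have hr3 : 3 ≤ r := by
    rcases Nat.lt_or_ge r 3 with h | h
    · have : r = 2 := by omega
      exact absurd (this ▸ hrπ) h2
    · exact h
  have hs5 : 5 ≤ s := by
    rcases Nat.lt_or_ge s 5 with h | h
    · have : s = 4 := by omega
      rw [this] at hs
      exact absurd hs (by decide)
    · exact h
  obtain ⟨c, hcH, hcc, hcs⟩ := exists_cycle_mem hH s hs hsπ (hcard ▸ hsn)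
  have hne : c.support.Nonempty := by
    rw [← Finset.card_pos, hcs]; omega
  obtain ⟨x₀, hx₀⟩ := hne
  have hsub : c.support ⊆ orb H x₀ := by
    intro w hw
    obtain ⟨i, hi⟩ := hcc.exists_pow_eq (Perm.mem_support.1 hx₀) (Perm.mem_support.1 hw)
    exact mem_orb.2 ⟨c ^ i, H.pow_mem hcH i, hi⟩
  have hsΔ : s ≤ (orb H x₀).card := hcs ▸ Finset.card_le_card hsub
  have hΔn : (orb H x₀).card ≤ n := hcard ▸ Finset.card_le_univ _
  rcases lt_or_eq_of_le hΔn with hlt | heq
  · obtain ⟨H', hH', -⟩ := hall_restrict hH (orb H x₀) (orb_inv x₀)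
    have := ih (orb H x₀).card hlt {x // x ∈ orb H x₀} π H' (Fintype.card_coe _) hH'
    rcases this with g1 | g2 | ⟨g3p, g3⟩ | ⟨g4n, g4⟩
    · have := g1 r s hr hs hrπ hsπ (by omega) hsΔ
      omega
    · exact h2 (g2 2 Nat.prime_two (by omega))
    · exact h2 ((g3 2 Nat.prime_two (by omega)).2 (by omega))
    · exact h2 ((g4 2 Nat.prime_two (by omega)).2 (Or.inl rfl))
  · have hΔu : orb H x₀ = Finset.univ := Finset.eq_univ_of_card _ (by rw [heq, hcard])
    have htr : ∀ x y : Ω, ∃ h ∈ H, h x = y := fun x y =>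
      orb_trans x₀ x (hΔu ▸ Finset.mem_univ x) y (hΔu ▸ Finset.mem_univ y)
    obtain ⟨H', hH', -⟩ := hall_point_stab hH htr x₀
    have hc1 : Fintype.card {x // x ≠ x₀} = n - 1 := by
      rw [Fintype.card_subtype_compl, Fintype.card_subtype_eq, hcard]
    have := ih (n - 1) (by omega) {x // x ≠ x₀} π H' hc1 hH'
    rcases this with g1 | g2 | ⟨g3p, g3⟩ | ⟨g4n, g4⟩
    · by_cases hsn1 : s ≤ n - 1
      · have := g1 r s hr hs hrπ hsπ (by omega) hsn1
        omega
      · have hsn' : s = n := by omega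
        obtain ⟨b, hbH, hbc, hbr⟩ := exists_cycle_mem hH r hr hrπ (by omega)
        have hp : (Fintype.card Ω).Prime := by rw [hcard, ← hsn']; exact hs
        have := even_card_of_prime_degree hp htr b hbH hbc (by rw [hbr, hcard]; omega)
        exact h2 (hH.1 2 Nat.prime_two this)
    · exact h2 (g2 2 Nat.prime_two (by omega))
    · have hr1 : r ≤ n - 1 := by omega
      have := (g3 r hr hr1).1 hrπ
      exact h2 ((g3 2 Nat.prime_two (by omega)).2 (by omega))
    · exact h2 ((g4 2 Nat.prime_two (by omega)).2 (Or.inl rfl))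

end Cfsg.Agent.Lib.Helper73.HT
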