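import Mathlib
import Cfsg.Agent.Lib.Helper73.HT.Main

set_option autoImplicit false
set_option maxHeartbeats 1600000

namespace Cfsg.Agent.Lib.Helper73.HT

open Equiv

universe u

/-- Case: the orbit of a largest class `E` is `E` itself. -/
theorem step_invariant {n : ℕ} (ih : IH.{u} n)
    (Ω : Type u) [Fintype Ω] [DecidableEq Ω] (π : Set ℕ) (H : Subgroup (Perm Ω))
    (hcard : Fintype.card Ω = n) (hH : Cfsg.IsPiHall π H) (h2π : 2 ∈ π)
    (M : ℕ) (hM3 : 3 ≤ M) (hMn : M < n)
    (key : ∀ t : ℕ, t.Prime → t ≤ n → (t ∈ π ↔ t ≤ M))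
    (O : Finset Ω) (hOinv : ∀ h ∈ H, ∀ x, h x ∈ O ↔ x ∈ O) (hOM : O.card = M) :
    (n.Prime ∧ ∀ r : ℕ, r.Prime → r ≤ n → (r ∈ π ↔ r < n)) ∨
    ((n = 7 ∨ n = 8) ∧ ∀ r : ℕ, r.Prime → r ≤ n → (r ∈ π ↔ (r = 2 ∨ r = 3))) := by
  have hch : ∀ p : ℕ, p.Prime → p ∈ π → ¬ p ∣ n.choose M := by
    have := hall_choose hH O hOinv
    rwa [hcard, hOM] at this
  have h3π : 3 ∈ π := (key 3 Nat.prime_three (by omega)).2 hM3
  by_cases heM : n - M ≤ M
  · by_cases he1 : n - M = 1
    · left
      have hnM : n = M + 1 := by omega
      have hchn : n.choose M = n := by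
        rw [hnM]; exact Nat.choose_succ_self_right M
      have hnp : n.Prime := by
        by_contra hnp
        obtain ⟨p, hp, hpn⟩ := Nat.exists_prime_and_dvd (show n ≠ 1 by omega)
        have hple : p ≤ n := Nat.le_of_dvd (by omega) hpn
        have hplt : p < n := lt_of_le_of_ne hple (fun h => hnp (h ▸ hp))
        have hpπ : p ∈ π := (key p hp hple).2 (by omega)
        exact hch p hp hpπ (by rw [hchn]; exact hpn)
      refine ⟨hnp, fun t ht htn => ?_⟩
      rw [key t ht htn]; omega
    · right
      have hnt := nt1 M (n - M) (by omega) heM (fun p hp hpM => by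
        have hpπ : p ∈ π := (key p hp (by omega)).2 hpM
        have h := hch p hp hpπ
        have e1 : M + (n - M) = n := by omega
        rw [e1, Nat.choose_symm (by omega : M ≤ n)]
        exact h)
      obtain ⟨hM4, he3⟩ := hnt
      refine ⟨Or.inl (by omega), fun t ht htn => ?_⟩
      rw [key t ht htn, hM4]
      exact prime_le_four ht
  · -- the complement is larger than the class
    have hΓinv : ∀ h ∈ H, ∀ x, h x ∈ Oᶜ ↔ x ∈ Oᶜ := by
      intro h hh x
      simp only [Finset.mem_compl, hOinv h hh x]
    have hΓcard : (Oᶜ).card = n - M := by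
      rw [Finset.card_compl, hcard, hOM]
    obtain ⟨H', hH', -⟩ := hall_restrict hH Oᶜ hΓinv
    have g := ih (n - M) (by omega) {x // x ∈ Oᶜ} π H' (by rw [Fintype.card_coe, hΓcard]) hH'
    rcases g with g1 | g2 | ⟨g3p, g3⟩ | ⟨g4n, g4⟩
    · have := g1 2 3 Nat.prime_two Nat.prime_three h2π h3π (by omega) (by omega)
      omega
    · have hnt := nt1 (n - M) M (by omega) (by omega) (fun p hp hpe => by
        have hpπ := g2 p hp hpe
        have h := hch p hp hpπ
        have e1 : n - M + M = n := by omega
        rw [e1]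
        exact h)
      obtain ⟨he4, hM3'⟩ := hnt
      right
      refine ⟨Or.inl (by omega), fun t ht htn => ?_⟩
      rw [key t ht htn, hM3']
      exact prime_le_three ht
    · exfalso
      have hnt := nt1 (n - M) M (by omega) (by omega) (fun p hp hpe => by
        have e1 : n - M + M = n := by omega
        rcases lt_or_eq_of_le hpe with hlt | heq
        · have hpπ := (g3 p hp hpe).2 hlt
          have h := hch p hp hpπ
          rw [e1]
          exact h
        · rw [← heq]
          exact not_prime_dvd_choose_add hp (by omega))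
      have h4 : n - M = 4 := hnt.1
      rw [h4] at g3p
      exact absurd g3p (by decide)
    · exfalso
      have h5 : ¬ (5 ≤ M) := fun h5 => by
        have h5π := (key 5 (by norm_num) (by omega)).2 h5
        have := (g4 5 (by norm_num) (by omega)).1 h5π
        omega
      have h3 := hch 3 Nat.prime_three h3π
      have hM : M = 3 ∨ M = 4 := by omega
      rcases g4n with he | he <;> rcases hM with hM' | hM'
      · have hn : n = 10 := by omega
        rw [hn, hM'] at h3; exact h3 (by decide)
      · have hn : n = 11 := by omega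
        rw [hn, hM'] at h3; exact h3 (by decide)
      · have hn : n = 11 := by omega
        rw [hn, hM'] at h3; exact h3 (by decide)
      · have hn : n = 12 := by omega
        rw [hn, hM'] at h3; exact h3 (by decide)

end Cfsg.Agent.Lib.Helper73.HT
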