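import Mathlib
import Cfsg.Agent.Lib.Helper73.HT.Main2

set_option autoImplicit false
set_option maxHeartbeats 1600000

namespace Cfsg.Agent.Lib.Helper73.HT

open Equiv

universe u

/-- Case: the orbit of a largest class `E` is larger than `E`. -/
theorem step_moved {n : ℕ} (ih : IH.{u} n)
    (Ω : Type u) [Fintype Ω] [DecidableEq Ω] (π : Set ℕ) (H : Subgroup (Perm Ω))
    (hcard : Fintype.card Ω = n) (hH : Cfsg.IsPiHall π H) (h2π : 2 ∈ π)
    (M : ℕ) (hM3 : 3 ≤ M) (hMn : M < n)
    (key : ∀ t : ℕ, t.Prime → t ≤ n → (t ∈ π ↔ t ≤ M))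
    (x₀ : Ω) (hx₀ : (cls H x₀).card = M) (hOM : (orb H x₀).card ≠ M) :
    ((n = 7 ∨ n = 8) ∧ ∀ r : ℕ, r.Prime → r ≤ n → (r ∈ π ↔ (r = 2 ∨ r = 3))) := by
  classical
  have hEO : cls H x₀ ⊆ orb H x₀ := cls_subset_orb (self_mem_orb x₀)
  have hOinv := orb_inv (H := H) x₀
  obtain ⟨k, hk⟩ : M ∣ (orb H x₀).card := hx₀ ▸ card_cls_dvd_card_orb x₀
  have hMO : M ≤ (orb H x₀).card := hx₀ ▸ Finset.card_le_card hEO
  have hOn : (orb H x₀).card ≤ n := hcard ▸ Finset.card_le_univ _
  have hk2 : 2 ≤ k := by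
    rcases Nat.lt_or_ge k 2 with h | h
    · interval_cases k
      · rw [Nat.mul_zero] at hk; omega
      · exact absurd (by rw [hk]; ring) hOM
    · exact h
  have h3π : 3 ∈ π := (key 3 Nat.prime_three (by omega)).2 hM3
  -- restriction to O
  obtain ⟨H1, hH1, hH1mem⟩ := hall_restrict hH (orb H x₀) hOinv
  have htr1 : ∀ x y : {x // x ∈ orb H x₀}, ∃ h ∈ H1, h x = y := by
    intro x y
    obtain ⟨h, hh, hxy⟩ := orb_trans x₀ x.1 x.2 y.1 y.2
    exact ⟨h.subtypePerm (fun z => hOinv h hh z), (hH1mem _).2 ⟨h, hh, fun z => rfl⟩,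
      Subtype.ext hxy⟩
  obtain ⟨H2, hH2, hH2mem⟩ := hall_point_stab hH1 htr1 ⟨x₀, self_mem_orb x₀⟩
  have hcard2 : Fintype.card {x : {x // x ∈ orb H x₀} // x ≠ ⟨x₀, self_mem_orb x₀⟩}
      = (orb H x₀).card - 1 := by
    rw [Fintype.card_subtype_compl, Fintype.card_subtype_eq, Fintype.card_coe]
  -- elements of H2 come from elements of H fixing x₀
  have hlift : ∀ h2 ∈ H2, ∃ h ∈ H, h x₀ = x₀ ∧
      ∀ x : {x : {x // x ∈ orb H x₀} // x ≠ ⟨x₀, self_mem_orb x₀⟩},
        ((h2 x).1.1 : Ω) = h x.1.1 := by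
    intro h2 hh2
    obtain ⟨h1, hh1, h1ω, h1x⟩ := (hH2mem h2).1 hh2
    obtain ⟨h, hh, hx⟩ := (hH1mem h1).1 hh1
    refine ⟨h, hh, ?_, fun x => ?_⟩
    · have := hx ⟨x₀, self_mem_orb x₀⟩
      rw [h1ω] at this
      exact this.symm
    · rw [h1x x, hx x.1]
  -- the invariant set D
  obtain ⟨D, hDmem⟩ : ∃ D : Finset {x : {x // x ∈ orb H x₀} // x ≠ ⟨x₀, self_mem_orb x₀⟩},
      ∀ x, x ∈ D ↔ (x.1.1 : Ω) ∈ cls H x₀ :=
    ⟨Finset.univ.filter (fun x => (x.1.1 : Ω) ∈ cls H x₀), fun x => by simp⟩
  have hDinv : ∀ h2 ∈ H2, ∀ x, h2 x ∈ D ↔ x ∈ D := by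
    intro h2 hh2 x
    obtain ⟨h, hh, hfix, hx⟩ := hlift h2 hh2
    rw [hDmem, hDmem, hx x]
    have := cls_smul hh x₀ x.1.1
    rwa [hfix] at this
  have hDcard : D.card = M - 1 := by
    have : D.card = ((cls H x₀).erase x₀).card := by
      apply Finset.card_bij (fun a _ => (a.1.1 : Ω))
      · intro a ha
        rw [Finset.mem_erase]
        exact ⟨fun h => a.2 (Subtype.ext h), (hDmem a).1 ha⟩
      · intro a _ b _ hab
        exact Subtype.ext (Subtype.ext hab)
      · intro w hw
        rw [Finset.mem_erase] at hw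
        exact ⟨⟨⟨w, hEO hw.2⟩, fun h => hw.1 (congrArg Subtype.val h)⟩, (hDmem _).2 hw.2, rfl⟩
    rw [this, Finset.card_erase_of_mem (self_mem_cls x₀), hx₀]
  have hch2 : ∀ p : ℕ, p.Prime → p ∈ π → ¬ p ∣ ((orb H x₀).card - 1).choose (M - 1) := by
    have := hall_choose hH2 D hDinv
    rwa [hcard2, hDcard] at this
  -- restriction to the complement of D
  have hD'inv : ∀ h2 ∈ H2, ∀ x, h2 x ∈ Dᶜ ↔ x ∈ Dᶜ := by
    intro h2 hh2 x
    simp only [Finset.mem_compl, hDinv h2 hh2 x]
  have hD'card : (Dᶜ).card = (orb H x₀).card - M := by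
    rw [Finset.card_compl, hcard2, hDcard]; omega
  obtain ⟨H3, hH3, -⟩ := hall_restrict hH2 Dᶜ hD'inv
  have hm2 : (orb H x₀).card - M = M * (k - 1) := by
    rw [hk, Nat.mul_sub, mul_one]
  have g := ih ((orb H x₀).card - M) (by omega) {x // x ∈ Dᶜ} π H3
    (by rw [Fintype.card_coe, hD'card]) hH3
  have hm2ge : M ≤ (orb H x₀).card - M := by
    rw [hm2]; exact Nat.le_mul_of_pos_right M (by omega)
  rcases g with g1 | g2 | ⟨g3p, g3⟩ | ⟨g4n, g4⟩
  · have := g1 2 3 Nat.prime_two Nat.prime_three h2π h3π (by omega) (by omega)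
    omega
  · -- all primes up to |O| - M are in π
    obtain ⟨p, hp, hMp, hp2M⟩ := Nat.exists_prime_lt_and_le_two_mul M (by omega)
    have hk2' : k = 2 := by
      by_contra hk2'
      have hk3 : 3 ≤ k := by omega
      have hle : 2 * M ≤ (orb H x₀).card - M := by
        rw [hm2]
        calc 2 * M = M * 2 := by ring
          _ ≤ M * (k - 1) := Nat.mul_le_mul_left M (by omega)
      have hpπ := g2 p hp (by omega)
      have := (key p hp (by omega)).1 hpπ
      omega
    have hO2 : (orb H x₀).card = 2 * M := by rw [hk, hk2']; ring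
    have hnt := nt1 M (M - 1) (by omega) (by omega) (fun p hp hpM => by
      have hpπ : p ∈ π := (key p hp (by omega)).2 hpM
      have h := hch2 p hp hpπ
      have e1 : M + (M - 1) = (orb H x₀).card - 1 := by omega
      rw [e1]
      exact h)
    have hM4 : M = 4 := hnt.1
    have hO8 : (orb H x₀).card = 8 := by omega
    have hn8 : n = 8 := by
      by_contra hn8
      have hn9 : 9 ≤ n := by omega
      have hΓinv : ∀ h ∈ H, ∀ x, h x ∈ (orb H x₀)ᶜ ↔ x ∈ (orb H x₀)ᶜ := by
        intro h hh x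
        simp only [Finset.mem_compl, hOinv h hh x]
      have hΓcard : ((orb H x₀)ᶜ).card = n - 8 := by
        rw [Finset.card_compl, hcard, hO8]
      have hchO : ∀ p : ℕ, p.Prime → p ∈ π → ¬ p ∣ n.choose 8 := by
        have := hall_choose hH (orb H x₀) hOinv
        rwa [hcard, hO8] at this
      have h3 := hchO 3 Nat.prime_three h3π
      obtain ⟨H4, hH4, -⟩ := hall_restrict hH (orb H x₀)ᶜ hΓinv
      have g' := ih (n - 8) (by omega) {x // x ∈ (orb H x₀)ᶜ} π H4
        (by rw [Fintype.card_coe, hΓcard]) hH4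
      rcases g' with g1 | g2 | ⟨g3p, g3⟩ | ⟨g4n, g4⟩
      · have he2 : n - 8 ≤ 2 := by
          by_contra h
          have := g1 2 3 Nat.prime_two Nat.prime_three h2π h3π (by omega) (by omega)
          omega
        have hn : n = 9 ∨ n = 10 := by omega
        rcases hn with hn | hn
        · rw [hn] at h3; exact h3 (by decide)
        · rw [hn] at h3; exact h3 (by decide)
      · have he4 : n - 8 ≤ 4 := by
          by_contra h
          have h5π := g2 5 (by norm_num) (by omega)
          have := (key 5 (by norm_num) (by omega)).1 h5π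
          omega
        have hn : n = 9 ∨ n = 10 ∨ n = 11 ∨ n = 12 := by omega
        rcases hn with hn | hn | hn | hn
        · rw [hn] at h3; exact h3 (by decide)
        · rw [hn] at h3; exact h3 (by decide)
        · rw [hn] at h3; exact h3 (by decide)
        · rw [hn] at h3; exact h3 (by decide)
      · have hnotπ : (n - 8) ∉ π := fun h => by
          have := (g3 (n - 8) g3p le_rfl).1 h
          omega
        have hge5 : 5 ≤ n - 8 := by
          by_contra h
          exact hnotπ ((key (n - 8) g3p (by omega)).2 (by omega))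
        have he5 : n - 8 = 5 := by
          by_contra h
          have h5π := (g3 5 (by norm_num) (by omega)).2 (by omega)
          have := (key 5 (by norm_num) (by omega)).1 h5π
          omega
        have hn : n = 13 := by omega
        rw [hn] at h3; exact h3 (by decide)
      · have hn : n = 15 ∨ n = 16 := by omega
        rcases hn with hn | hn
        · rw [hn] at h3; exact h3 (by decide)
        · rw [hn] at h3; exact h3 (by decide)
    refine ⟨Or.inr hn8, fun t ht htn => ?_⟩
    rw [key t ht htn, hM4]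
    exact prime_le_four ht
  · exfalso
    have hdvd : M ∣ (orb H x₀).card - M := ⟨k - 1, hm2⟩
    have hMeq : M = (orb H x₀).card - M := by
      rcases (Nat.dvd_prime g3p).1 hdvd with h | h
      · omega
      · exact h
    have hMp : M.Prime := hMeq ▸ g3p
    have h1 := (key M hMp (by omega)).2 le_rfl
    have h2 := (g3 M hMp (by omega)).1 h1
    omega
  · exfalso
    have hdvd : M ∣ (orb H x₀).card - M := ⟨k - 1, hm2⟩
    rcases g4n with he | he
    · rw [he] at hdvd
      have hM7 : M = 7 := by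
        rcases (Nat.dvd_prime (by norm_num : Nat.Prime 7)).1 hdvd with h | h <;> omega
      have h7π := (key 7 (by norm_num) (by omega)).2 (by omega)
      have := (g4 7 (by norm_num) (by omega)).1 h7π
      omega
    · rw [he] at hdvd
      have hM48 : M = 4 ∨ M = 8 := by
        have hmem : M ∈ Nat.divisors 8 := Nat.mem_divisors.2 ⟨hdvd, by norm_num⟩
        have h8 : Nat.divisors 8 = {1, 2, 4, 8} := by decide
        rw [h8] at hmem
        simp only [Finset.mem_insert, Finset.mem_singleton] at hmem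
        omega
      rcases hM48 with hM4 | hM8
      · have h3 := hch2 3 Nat.prime_three h3π
        have e1 : (orb H x₀).card - 1 = 11 := by omega
        rw [e1, hM4] at h3
        exact h3 (by decide)
      · have h5π := (key 5 (by norm_num) (by omega)).2 (by omega)
        have := (g4 5 (by norm_num) (by omega)).1 h5π
        omega

end Cfsg.Agent.Lib.Helper73.HT
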