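import Mathlib
import Cfsg.Agent.Lib.Helper73.HT.Main3

set_option autoImplicit false
set_option maxHeartbeats 1600000

namespace Cfsg.Agent.Lib.Helper73.HT

open Equiv

universe u

theorem main_step {n : ℕ} (ih : IH.{u} n)
    (Ω : Type u) [Fintype Ω] [DecidableEq Ω] (π : Set ℕ) (H : Subgroup (Perm Ω))
    (hcard : Fintype.card Ω = n) (hH : Cfsg.IsPiHall π H) (h2π : 2 ∈ π)
    (q : ℕ) (hq : q.Prime) (hqπ : q ∈ π) (hqn : q ≤ n) (hq3 : 3 ≤ q)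
    (p₀ : ℕ) (hp₀ : p₀.Prime) (hp₀n : p₀ ≤ n) (hp₀π : p₀ ∉ π) :
    (n.Prime ∧ ∀ r : ℕ, r.Prime → r ≤ n → (r ∈ π ↔ r < n)) ∨
    ((n = 7 ∨ n = 8) ∧ ∀ r : ℕ, r.Prime → r ≤ n → (r ∈ π ↔ (r = 2 ∨ r = 3))) := by
  have hn3 : 3 ≤ n := le_trans hq3 hqn
  obtain ⟨M, hMdef⟩ : ∃ M, maxCls H = M := ⟨_, rfl⟩
  have key : ∀ t : ℕ, t.Prime → t ≤ n → (t ∈ π ↔ t ≤ M) := by
    intro t ht htn
    rw [← hMdef]
    exact mem_pi_iff_le_max hH h2π (hcard ▸ hn3) t ht (hcard ▸ htn)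
  have hM3 : 3 ≤ M := le_trans hq3 ((key q hq hqn).1 hqπ)
  have hMn : M < n := by
    by_contra h
    exact hp₀π ((key p₀ hp₀ hp₀n).2 (by omega))
  haveI : Nonempty Ω := by
    rw [← Fintype.card_pos_iff]; omega
  obtain ⟨x₀, hx₀⟩ := exists_card_cls_eq (H := H)
  rw [hMdef] at hx₀
  by_cases hOM : (orb H x₀).card = M
  · exact step_invariant ih Ω π H hcard hH h2π M hM3 hMn key (orb H x₀) (orb_inv x₀) hOM
  · exact Or.inr (step_moved ih Ω π H hcard hH h2π M hM3 hMn key x₀ hx₀ hOM)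

/-- **Hall–Thompson** (necessity): a Hall `π`-subgroup of a symmetric group of degree `n` forces
one of the four alternatives of `Good n π`. -/
theorem hall_good : ∀ (n : ℕ) (Ω : Type u) [Fintype Ω] [DecidableEq Ω] (π : Set ℕ)
    (H : Subgroup (Perm Ω)), Fintype.card Ω = n → Cfsg.IsPiHall π H → Good n π := by
  intro n
  induction n using Nat.strong_induction_on with
  | _ n ih =>
    intro Ω _ _ π H hcard hH
    by_cases h1 : ∀ r s : ℕ, r.Prime → s.Prime → r ∈ π → s ∈ π → r ≤ n → s ≤ n → r = s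
    · exact Or.inl h1
    by_cases h2 : ∀ r : ℕ, r.Prime → r ≤ n → r ∈ π
    · exact Or.inr (Or.inl h2)
    right; right
    simp only [not_forall, exists_prop] at h1 h2
    obtain ⟨r, s, hr, hs, hrπ, hsπ, hrn, hsn, hrs⟩ := h1
    obtain ⟨p₀, hp₀, hp₀n, hp₀π⟩ := h2
    have ih' : IH.{u} n := fun m hm Ω' _ _ π' H' hc hH' => ih m hm Ω' π' H' hc hH'
    have h2π : 2 ∈ π := by
      rcases lt_or_gt_of_ne hrs with hlt | hlt
      · exact two_mem_of_hall ih' Ω π H hcard hH r s hr hs hlt hrπ hsπ hsn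
      · exact two_mem_of_hall ih' Ω π H hcard hH s r hs hr hlt hsπ hrπ hrn
    obtain ⟨q, hq, hqπ, hqn, hq3⟩ : ∃ q : ℕ, q.Prime ∧ q ∈ π ∧ q ≤ n ∧ 3 ≤ q := by
      by_cases hr2 : r = 2
      · refine ⟨s, hs, hsπ, hsn, ?_⟩
        have := hs.two_le
        omega
      · refine ⟨r, hr, hrπ, hrn, ?_⟩
        have := hr.two_le
        omega
    exact main_step ih' Ω π H hcard hH h2π q hq hqπ hqn hq3 p₀ hp₀ hp₀n hp₀π

end Cfsg.Agent.Lib.Helper73.HT
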